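import Mathlib
import Cfsg.Agent.Lib.Helper46.FP.Defs
import Cfsg.Agent.Lib.Helper46.FP.LemYGlue
import Cfsg.Agent.Lib.Helper97.FP.Tools
import Cfsg.Agent.Lib.Helper29.FP.T2
import Cfsg.Agent.Lib.Helper64.FP.Basic

/-!
# S3814: second half of `LemY`

A subgroup of exponent `a` and class two, generated by the commutators with `y`, is abelian.
-/

set_option autoImplicit false
set_option linter.style.haveILetI false

namespace Cfsg.Agent.Lib.Helper46.FP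

universe u

open scoped commutatorElement

/-- In a cyclic group of prime order, a nontrivial element generates. -/
theorem mem_zpowers_of_prime' {G : Type u} [Group G] [Finite G] {c : ℕ} (hc : c.Prime) {x x' : G}
    (hx : orderOf x = c) (hx' : x' ∈ Subgroup.zpowers x) (hne : x' ≠ 1) :
    x ∈ Subgroup.zpowers x' := by
  haveI : Fact c.Prime := ⟨hc⟩
  have hle : Subgroup.zpowers x' ≤ Subgroup.zpowers x := Subgroup.zpowers_le.2 hx'
  have hx'c : x' ^ c = 1 := by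
    obtain ⟨k, rfl⟩ := Subgroup.mem_zpowers_iff.1 hx'
    rw [← zpow_natCast, ← zpow_mul, mul_comm, zpow_mul, zpow_natCast, ← hx, pow_orderOf_eq_one,
      one_zpow]
  have ho : orderOf x' = c := orderOf_eq_prime hx'c hne
  have heq : Subgroup.zpowers x' = Subgroup.zpowers x := by
    apply Subgroup.eq_of_le_of_card_ge hle
    rw [Nat.card_zpowers, Nat.card_zpowers, hx, ho]
  rw [heq]
  exact Subgroup.mem_zpowers x

/-- The facts in `G` needed for the quotient argument. -/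
theorem lemY_final_aux {G : Type u} [Group G] [Finite G] (a b c : ℕ) (ha : a.Prime) (hb : b.Prime)
    (hc : c.Prime) (hab : a ≠ b) (hac : a ≠ c) (hbc : b ≠ c) (P : Subgroup G) (hP : IsPGroup a P)
    (y z0 z3 : G) (hy : orderOf y = b) (h0 : orderOf z0 = c) (h3 : orderOf z3 = c)
    (hyP : ∀ x ∈ P, y * x * y⁻¹ ∈ P) (h0P : ∀ x ∈ P, z0 * x * z0⁻¹ ∈ P)
    (h3P : ∀ x ∈ P, z3 * x * z3⁻¹ ∈ P) (h03 : z0 * z3 = z3 * z0) (h3y : z3 * y = y * z3)
    (h0y : z0 * y * z0⁻¹ ∈ Subgroup.zpowers y) (h0y' : z0 * y ≠ y * z0)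
    (hfpf : ∀ x ∈ P, z3 * x = x * z3 → x = 1)
    (hcyc : ∀ e ∈ Subgroup.closure ({z0, z3} : Set G), e ≠ 1 → ∀ x ∈ P, ∀ x' ∈ P,
      e * x = x * e → e * x' = x' * e → x * x' = x' * x → orderOf x = a → orderOf x' = a →
      x' ∈ Subgroup.zpowers x)
    (hexp : ∀ u ∈ P, u ^ a = 1)
    (hcl2 : ∀ u ∈ P, ∀ v ∈ P, ∀ w ∈ P, (u * v * u⁻¹ * v⁻¹) * w = w * (u * v * u⁻¹ * v⁻¹))
    (u0 v0 : G) (hu0 : u0 ∈ P) (hv0 : v0 ∈ P) (huv : u0 * v0 ≠ v0 * u0) :
    ∃ D : Subgroup G, D ≤ P ∧ ¬ c ∣ Nat.card D ∧ (∀ d ∈ D, ∀ w ∈ P, d * w = w * d) ∧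
      (∀ g : G, (∀ x ∈ P, g * x * g⁻¹ ∈ P) → ∀ d ∈ D, g * d * g⁻¹ ∈ D) ∧
      (∀ u ∈ P, ∀ v ∈ P, u * v * u⁻¹ * v⁻¹ ∈ D) ∧
      ∃ e : G, orderOf e = c ∧ (∀ x ∈ P, e * x * e⁻¹ ∈ P) ∧
        (∀ k ∈ Subgroup.zpowers y, e * k * e⁻¹ ∈ Subgroup.zpowers y) ∧
        (∀ x ∈ P, e * x = x * e → x ∈ D) ∧
        (∀ i : ℕ, ∀ k ∈ Subgroup.zpowers y, e ^ i ≠ 1 → e ^ i * k = k * e ^ i → k = 1) := by
  haveI : Fact a.Prime := ⟨ha⟩
  haveI : Fact b.Prime := ⟨hb⟩
  haveI : Fact c.Prime := ⟨hc⟩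
  obtain ⟨D, hD⟩ : ∃ D : Subgroup G, D = ⁅P, P⁆ := ⟨_, rfl⟩
  have hDP : D ≤ P := by
    rw [hD, Subgroup.commutator_le]
    intro g1 h1 g2 h2
    rw [commutatorElement_def]
    exact P.mul_mem (P.mul_mem (P.mul_mem h1 h2) (P.inv_mem h1)) (P.inv_mem h2)
  have hDc : ∀ d ∈ D, ∀ w ∈ P, d * w = w * d := by
    have hle : D ≤ Subgroup.centralizer (P : Set G) := by
      rw [hD, Subgroup.commutator_le]
      intro g1 h1 g2 h2
      rw [Subgroup.mem_centralizer_iff]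
      intro w hw
      rw [commutatorElement_def]
      exact (hcl2 g1 h1 g2 h2 w hw).symm
    intro d hd w hw
    exact ((Subgroup.mem_centralizer_iff.1 (hle hd)) w hw).symm
  have hDn : ∀ g : G, (∀ x ∈ P, g * x * g⁻¹ ∈ P) → ∀ d ∈ D, g * d * g⁻¹ ∈ D := by
    intro g hg
    have hle : D ≤ D.comap (MulAut.conj g).toMonoidHom := by
      rw [hD, Subgroup.commutator_le]
      intro g1 h1 g2 h2
      rw [Subgroup.mem_comap]
      have : (MulAut.conj g).toMonoidHom ⁅g1, g2⁆ = ⁅g * g1 * g⁻¹, g * g2 * g⁻¹⁆ := by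
        simp only [MulEquiv.toMonoidHom_eq_coe, MonoidHom.coe_coe, MulAut.conj_apply,
          commutatorElement_def]
        group
      rw [this]
      exact Subgroup.commutator_mem_commutator (hg g1 h1) (hg g2 h2)
    intro d hd
    have := hle hd
    rw [Subgroup.mem_comap] at this
    simpa using this
  have hDcomm : ∀ u ∈ P, ∀ v ∈ P, u * v * u⁻¹ * v⁻¹ ∈ D := by
    intro u hu v hv
    rw [hD, ← commutatorElement_def]
    exact Subgroup.commutator_mem_commutator hu hv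
  have hDne : D ≠ ⊥ := by
    intro hbot
    have h1 := hDcomm u0 hu0 v0 hv0
    rw [hbot, Subgroup.mem_bot] at h1
    apply huv
    have : u0 * v0 = (u0 * v0 * u0⁻¹ * v0⁻¹) * (v0 * u0) := by group
    rw [this, h1, one_mul]
  have hcD : ¬ c ∣ Nat.card D := by
    intro hdvd
    obtain ⟨n, hn⟩ := (hP.to_le hDP).exists_card_eq
    rw [hn] at hdvd
    exact hac ((Nat.prime_dvd_prime_iff_eq hc ha).1 (hc.dvd_of_dvd_pow hdvd)).symm
  have h0c : z0 ^ c = 1 := by rw [← h0]; exact pow_orderOf_eq_one z0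
  have h3c : z3 ^ c = 1 := by rw [← h3]; exact pow_orderOf_eq_one z3
  have h3ne : z3 ≠ 1 := by
    intro h; rw [h, orderOf_one] at h3; exact hc.one_lt.ne h3
  have hz3 : z3 ∉ Subgroup.zpowers z0 := by
    intro hmem
    have h1 : z0 ∈ Subgroup.zpowers z3 := mem_zpowers_of_prime' hc h0 hmem h3ne
    exact h0y' (Cfsg.Agent.Lib.Helper64.FP.commute_of_mem_zpowers h3y.symm h1).symm
  obtain ⟨e, he, he1, w, hwD, hw1, hew⟩ := Cfsg.Agent.Lib.Helper97.FP.tool_T1 c hc z0 z3 h0 h3 h03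
    hz3 D hDne hcD (hDn z0 h0P) (hDn z3 h3P)
  obtain ⟨hec, -, -⟩ := Cfsg.Agent.Lib.Helper64.FP.closure_pair_props h03 h0c h3c he
  have heo : orderOf e = c := orderOf_eq_prime hec he1
  have hwP : w ∈ P := hDP hwD
  have hwo : orderOf w = a := orderOf_eq_prime (hexp w hwP) hw1
  have hCe : ∀ x ∈ P, e * x = x * e → x ∈ D := by
    intro x hx hex
    by_cases hx1 : x = 1
    · rw [hx1]; exact D.one_mem
    · have hxo : orderOf x = a := orderOf_eq_prime (hexp x hx) hx1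
      have := hcyc e he he1 w hwP x hx hew hex (hDc w hwD x hx) hwo hxo
      exact (Subgroup.zpowers_le.2 hwD) this
  have heP : ∀ x ∈ P, e * x * e⁻¹ ∈ P := by
    have hle : Subgroup.closure ({z0, z3} : Set G) ≤ Subgroup.normalizer (P : Set G) := by
      rw [Subgroup.closure_le]
      intro g hg
      rcases hg with rfl | rfl
      · exact Subgroup.mem_normalizer_fintype (fun n hn => h0P n hn)
      · exact Subgroup.mem_normalizer_fintype (fun n hn => h3P n hn)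
    intro x hx
    exact (Subgroup.mem_normalizer_iff.1 (hle he) x).1 hx
  have heY : ∀ k ∈ Subgroup.zpowers y, e * k * e⁻¹ ∈ Subgroup.zpowers y := by
    have hle : Subgroup.closure ({z0, z3} : Set G) ≤
        Subgroup.normalizer (Subgroup.zpowers y : Set G) := by
      rw [Subgroup.closure_le]
      intro g hg
      rcases hg with rfl | rfl
      · apply Subgroup.mem_normalizer_fintype
        intro n hn
        obtain ⟨k, rfl⟩ := Subgroup.mem_zpowers_iff.1 hn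
        have : g * y ^ k * g⁻¹ = (g * y * g⁻¹) ^ k := by simp
        rw [this]
        exact Subgroup.zpow_mem _ h0y k
      · apply Subgroup.mem_normalizer_fintype
        intro n hn
        obtain ⟨k, rfl⟩ := Subgroup.mem_zpowers_iff.1 hn
        have : g * y ^ k * g⁻¹ = (g * y * g⁻¹) ^ k := by simp
        rw [this, h3y]
        simp
    intro x hx
    exact (Subgroup.mem_normalizer_iff.1 (hle he) x).1 hx
  have hfree : ∀ i : ℕ, ∀ k ∈ Subgroup.zpowers y, e ^ i ≠ 1 → e ^ i * k = k * e ^ i → k = 1 := by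
    intro i k hk hei hcomm
    by_contra hk1
    -- `e ^ i` commutes with `y`
    have hyk : y ∈ Subgroup.zpowers k := mem_zpowers_of_prime' hb hy hk hk1
    have h1 : e ^ i * y = y * e ^ i :=
      Cfsg.Agent.Lib.Helper64.FP.commute_of_mem_zpowers hcomm hyk
    -- `e` commutes with `y`
    have hee : e ∈ Subgroup.zpowers (e ^ i) :=
      mem_zpowers_of_prime' hc heo (Subgroup.pow_mem _ (Subgroup.mem_zpowers e) i) hei
    have h2 : y * e = e * y := Cfsg.Agent.Lib.Helper64.FP.commute_of_mem_zpowers h1.symm hee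
    obtain ⟨m, n, hmn⟩ := Cfsg.Agent.Lib.Helper64.FP.mem_closure_pair_comm h03 he
    have h3n : y * z3 ^ n = z3 ^ n * y :=
      Cfsg.Agent.Lib.Helper64.FP.commute_of_mem_zpowers h3y.symm
        (Subgroup.zpow_mem _ (Subgroup.mem_zpowers z3) n)
    have h0m : y * z0 ^ m = z0 ^ m * y := by
      have e1 : z0 ^ m = e * (z3 ^ n)⁻¹ := by rw [hmn]; group
      rw [e1]
      have c1 : Commute y e := h2
      have c2 : Commute y (z3 ^ n) := h3n
      exact (c1.mul_right c2.inv_right).eq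
    have hz0m : z0 ^ m = 1 := by
      by_contra hne
      have : z0 ∈ Subgroup.zpowers (z0 ^ m) :=
        mem_zpowers_of_prime' hc h0 (Subgroup.zpow_mem _ (Subgroup.mem_zpowers z0) m) hne
      exact h0y' (Cfsg.Agent.Lib.Helper64.FP.commute_of_mem_zpowers h0m this).symm
    rw [hz0m, one_mul] at hmn
    have hz3e : z3 ∈ Subgroup.zpowers e := by
      apply mem_zpowers_of_prime' hc h3 _ he1
      rw [hmn]
      exact Subgroup.zpow_mem _ (Subgroup.mem_zpowers z3) n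
    have : w * z3 = z3 * w := Cfsg.Agent.Lib.Helper64.FP.commute_of_mem_zpowers hew.symm hz3e
    exact hw1 (hfpf w hwP this.symm)
  exact ⟨D, hDP, hcD, hDc, hDn, hDcomm, e, heo, heP, heY, hCe, hfree⟩

/-- Second half of `LemY`: a subgroup with the structure of `LY1` is abelian. -/
theorem lemY_final : LY2.{u} := by
  intro G _ _ a b c ha hb hc hab hac hbc P hP y z0 z3 hy h0 h3 hyP h0P h3P h03 h3y h0y h0y'
    hfpf hcyc hexp hcl2 hgen
  by_contra hcon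
  push Not at hcon
  obtain ⟨u0, hu0, v0, hv0, huv⟩ := hcon
  obtain ⟨D, hDP, hcD, hDc, hDn, hDcomm, e, heo, heP, heY, hCe, hfree⟩ :=
    lemY_final_aux a b c ha hb hc hab hac hbc P hP y z0 z3 hy h0 h3 hyP h0P h3P h03 h3y h0y h0y'
      hfpf hcyc hexp hcl2 u0 v0 hu0 hv0 huv
  haveI : Fact a.Prime := ⟨ha⟩
  haveI : Fact b.Prime := ⟨hb⟩
  haveI : Fact c.Prime := ⟨hc⟩
  have hYp : IsPGroup b (Subgroup.zpowers y) :=
    IsPGroup.of_card (n := 1) (by rw [Nat.card_zpowers, hy, pow_one])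
  have hmulP : ∀ g1 g2 : G, (∀ x ∈ P, g1 * x * g1⁻¹ ∈ P) → (∀ x ∈ P, g2 * x * g2⁻¹ ∈ P) →
      ∀ x ∈ P, (g1 * g2) * x * (g1 * g2)⁻¹ ∈ P := by
    intro g1 g2 h1 h2 x hx
    have := h1 _ (h2 x hx)
    have e1 : (g1 * g2) * x * (g1 * g2)⁻¹ = g1 * (g2 * x * g2⁻¹) * g1⁻¹ := by group
    rw [e1]; exact this
  have hPP : ∀ u ∈ P, ∀ x ∈ P, u * x * u⁻¹ ∈ P :=
    fun u hu x hx => P.mul_mem (P.mul_mem hu hx) (P.inv_mem hu)
  -- the ambient group
  obtain ⟨N, hN⟩ : ∃ N : Subgroup G, N = Subgroup.normalizer (P : Set G) := ⟨_, rfl⟩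
  have hmemN : ∀ g : G, (∀ x ∈ P, g * x * g⁻¹ ∈ P) → g ∈ N := by
    intro g hg; rw [hN]; exact Subgroup.mem_normalizer_fintype (fun n hn => hg n hn)
  have hNP : ∀ g ∈ N, ∀ x ∈ P, g * x * g⁻¹ ∈ P := by
    intro g hg x hx; rw [hN] at hg; exact (Subgroup.mem_normalizer_iff.1 hg x).1 hx
  have hPN : P ≤ N := by rw [hN]; exact Subgroup.le_normalizer
  have hyN : y ∈ N := hmemN y hyP
  have heN : e ∈ N := hmemN e heP
  haveI hDnorm : (D.subgroupOf N).Normal := by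
    refine ⟨fun d hd x => ?_⟩
    rw [Subgroup.mem_subgroupOf] at hd ⊢
    exact hDn x (hNP x x.2) d hd
  obtain ⟨π, hπ⟩ : ∃ π : ↥N →* ↥N ⧸ D.subgroupOf N, π = QuotientGroup.mk' (D.subgroupOf N) :=
    ⟨_, rfl⟩
  have hπ1 : ∀ x : ↥N, π x = 1 ↔ (x : G) ∈ D := by
    intro x
    rw [hπ, QuotientGroup.mk'_apply, QuotientGroup.eq_one_iff, Subgroup.mem_subgroupOf]
  have hπeq : ∀ x x' : ↥N, π x = π x' ↔ (x : G)⁻¹ * (x' : G) ∈ D := by
    intro x x'
    rw [hπ, QuotientGroup.mk'_apply, QuotientGroup.mk'_apply, QuotientGroup.eq,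
      Subgroup.mem_subgroupOf]
    simp
  obtain ⟨K, hK⟩ : ∃ K : Subgroup (↥N ⧸ D.subgroupOf N),
      K = ((Subgroup.zpowers y).subgroupOf N).map π := ⟨_, rfl⟩
  obtain ⟨W, hW⟩ : ∃ W : Subgroup (↥N ⧸ D.subgroupOf N), W = (P.subgroupOf N).map π := ⟨_, rfl⟩
  obtain ⟨g, hg⟩ : ∃ g : ↥N ⧸ D.subgroupOf N, g = π ⟨e, heN⟩ := ⟨_, rfl⟩
  have hgK : ∀ k ∈ K, g * k * g⁻¹ ∈ K := by
    intro k hk
    rw [hK] at hk ⊢
    obtain ⟨k0, hk0, rfl⟩ := Subgroup.mem_map.1 hk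
    rw [Subgroup.mem_subgroupOf] at hk0
    refine Subgroup.mem_map.2 ⟨⟨e, heN⟩ * k0 * ⟨e, heN⟩⁻¹, ?_, by rw [hg]; simp⟩
    rw [Subgroup.mem_subgroupOf]
    exact heY _ hk0
  have hgW : ∀ w ∈ W, g * w * g⁻¹ ∈ W := by
    intro w hw
    rw [hW] at hw ⊢
    obtain ⟨w0, hw0, rfl⟩ := Subgroup.mem_map.1 hw
    rw [Subgroup.mem_subgroupOf] at hw0
    refine Subgroup.mem_map.2 ⟨⟨e, heN⟩ * w0 * ⟨e, heN⟩⁻¹, ?_, by rw [hg]; simp⟩
    rw [Subgroup.mem_subgroupOf]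
    exact heP _ hw0
  have hKW : ∀ k ∈ K, ∀ w ∈ W, k * w * k⁻¹ ∈ W := by
    intro k hk w hw
    rw [hK] at hk
    rw [hW] at hw ⊢
    obtain ⟨k0, -, rfl⟩ := Subgroup.mem_map.1 hk
    obtain ⟨w0, hw0, rfl⟩ := Subgroup.mem_map.1 hw
    rw [Subgroup.mem_subgroupOf] at hw0
    refine Subgroup.mem_map.2 ⟨k0 * w0 * k0⁻¹, ?_, by simp⟩
    rw [Subgroup.mem_subgroupOf]
    exact hNP k0 k0.2 _ hw0
  have hWab : ∀ w1 ∈ W, ∀ w2 ∈ W, w1 * w2 = w2 * w1 := by
    intro w1 hw1 w2 hw2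
    rw [hW] at hw1 hw2
    obtain ⟨a0, ha0, rfl⟩ := Subgroup.mem_map.1 hw1
    obtain ⟨b0, hb0, rfl⟩ := Subgroup.mem_map.1 hw2
    rw [Subgroup.mem_subgroupOf] at ha0 hb0
    rw [← map_mul, ← map_mul, hπeq]
    have h1 := hDcomm _ (P.inv_mem hb0) _ (P.inv_mem ha0)
    have e1 : ((a0 * b0 : ↥N) : G)⁻¹ * ((b0 * a0 : ↥N) : G)
        = (b0 : G)⁻¹ * (a0 : G)⁻¹ * (b0 : G)⁻¹⁻¹ * (a0 : G)⁻¹⁻¹ := by
      rw [Subgroup.coe_mul, Subgroup.coe_mul]; group
    rw [e1]; exact h1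
  have hcop : (Nat.card K).Coprime (Nat.card W) := by
    have hKp : IsPGroup b K := by rw [hK]; exact (hYp.comap_subtype).map π
    have hWp : IsPGroup a W := by rw [hW]; exact (hP.comap_subtype).map π
    exact IsPGroup.coprime_card_of_ne b a hab.symm K W hKp hWp
  have hfpfQ : ∀ i : ℕ, g ^ i ≠ 1 → ∀ k ∈ K, g ^ i * k = k * g ^ i → k = 1 := by
    intro i hgi k hk hcomm
    rw [hK] at hk
    obtain ⟨k0, hk0, rfl⟩ := Subgroup.mem_map.1 hk
    rw [Subgroup.mem_subgroupOf] at hk0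
    have hei : e ^ i ≠ 1 := by
      intro h
      apply hgi
      rw [hg, ← map_pow, hπ1]
      have : (((⟨e, heN⟩ : ↥N) ^ i : ↥N) : G) = e ^ i := by simp
      rw [this, h]; exact D.one_mem
    rw [hg, ← map_pow, ← map_mul, ← map_mul, hπeq] at hcomm
    have hd : (e ^ i * (k0 : G))⁻¹ * ((k0 : G) * e ^ i) ∈ D := by simpa using hcomm
    have hdY : (e ^ i * (k0 : G))⁻¹ * ((k0 : G) * e ^ i) ∈ Subgroup.zpowers y := by
      have hen : (e ^ i)⁻¹ ∈ Subgroup.normalizer (Subgroup.zpowers y : Set G) :=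
        Subgroup.inv_mem _ (Subgroup.pow_mem _
          (Subgroup.mem_normalizer_fintype (fun n hn => heY n hn)) i)
      have h1 := (Subgroup.mem_normalizer_iff.1 hen _).1 hk0
      have e1 : (e ^ i * (k0 : G))⁻¹ * ((k0 : G) * e ^ i)
          = (k0 : G)⁻¹ * ((e ^ i)⁻¹ * (k0 : G) * (e ^ i)⁻¹⁻¹) := by group
      rw [e1]
      exact Subgroup.mul_mem _ (Subgroup.inv_mem _ hk0) h1
    have hdisj : Disjoint (Subgroup.zpowers y) P :=
      IsPGroup.disjoint_of_ne b a hab.symm _ _ hYp hP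
    have hd1 := Subgroup.disjoint_def.1 hdisj hdY (hDP hd)
    have h2 : e ^ i * (k0 : G) = (k0 : G) * e ^ i := inv_mul_eq_one.1 hd1
    have h3 := hfree i _ hk0 hei h2
    have h4 : k0 = 1 := Subtype.ext h3
    rw [h4, map_one]
  have hfixQ : ∀ w ∈ W, g * w = w * g → w = 1 := by
    intro w hw hcomm
    rw [hW] at hw
    obtain ⟨w0, hw0, rfl⟩ := Subgroup.mem_map.1 hw
    rw [Subgroup.mem_subgroupOf] at hw0
    rw [hg, ← map_mul, ← map_mul, hπeq] at hcomm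
    have hd : (e * (w0 : G))⁻¹ * ((w0 : G) * e) ∈ D := by simpa using hcomm
    have hkg : e * (w0 : G) * e⁻¹ * (w0 : G)⁻¹ ∈ D := by
      have h1 := hDn (e * (w0 : G)) (hmulP _ _ heP (hPP _ hw0)) _ (D.inv_mem hd)
      have e1 : e * (w0 : G) * e⁻¹ * (w0 : G)⁻¹
          = e * (w0 : G) * ((e * (w0 : G))⁻¹ * ((w0 : G) * e))⁻¹ * (e * (w0 : G))⁻¹ := by group
      rw [e1]; exact h1
    obtain ⟨n, hn, hcn⟩ := Cfsg.Agent.Lib.Helper97.FP.tool_CPb c 1 hc e (by rw [heo, pow_one]) P D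
      (fun k hk n hn => hDn k (hPP k hk) n hn) (hDn e heP) hcD (w0 : G) hw0 hkg
    have h1 := hCe ((w0 : G) * n) (P.mul_mem hw0 (hDP hn)) hcn
    have hw0D : (w0 : G) ∈ D := by
      have := D.mul_mem h1 (D.inv_mem hn)
      simpa using this
    exact (hπ1 w0).2 hw0D
  have key := Cfsg.Agent.Lib.Helper29.FP.t2' K W g hgK hgW hKW hWab hcop hfpfQ hfixQ
  have hall : ∀ u ∈ P, u * y * u⁻¹ * y⁻¹ ∈ D := by
    intro u hu
    have hk : π ⟨y, hyN⟩ ∈ K := by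
      rw [hK]
      exact Subgroup.mem_map.2 ⟨⟨y, hyN⟩, by
        rw [Subgroup.mem_subgroupOf]; exact Subgroup.mem_zpowers y, rfl⟩
    have hw : π ⟨u, hPN hu⟩ ∈ W := by
      rw [hW]
      exact Subgroup.mem_map.2 ⟨⟨u, hPN hu⟩, by rw [Subgroup.mem_subgroupOf]; exact hu, rfl⟩
    have h1 := key _ hk _ hw
    rw [← map_mul, ← map_mul, hπeq] at h1
    have hd : (y * u)⁻¹ * (u * y) ∈ D := by simpa using h1
    have h2 := hDn (y * u) (hmulP _ _ hyP (hPP u hu)) _ hd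
    have e1 : u * y * u⁻¹ * y⁻¹ = y * u * ((y * u)⁻¹ * (u * y)) * (y * u)⁻¹ := by group
    rw [e1]; exact h2
  have hPD : P ≤ D := hgen D hall
  exact huv (hDc u0 (hPD hu0) v0 hv0)

end Cfsg.Agent.Lib.Helper46.FP
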